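import Cfsg.Agent.Lib.Psx.Cnt
import Cfsg.Agent.Lib.Psx.Res2
import Cfsg.Agent.Lib.Psx.Sm

set_option autoImplicit false

namespace CfsgLib.Psx

open Equiv

variable {α : Type*} [Fintype α] [DecidableEq α]

/-- sets closed under the blocks -/
def Clsd (R : α → α → α → Prop) (F : Finset α) : Prop :=
  ∀ a ∈ F, ∀ b ∈ F, ∀ c, R a b c → c ∈ F

omit [DecidableEq α] in
theorem clo_card (P : α → Prop) [DecidablePred P] :
    (Finset.univ.filter P).card = Set.ncard {y | P y} := by
  rw [← Set.ncard_coe_finset]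
  congr 1
  ext y
  simp

theorem clo_grow {G : Subgroup (Perm α)} {R : α → α → α → Prop} {k : ℕ} (hT : Tr G 2)
    (hR : Tri G R k) {F F' : Finset α} (hF : Clsd R F) (hF' : Clsd R F') (hs : F ⊆ F') {x : α}
    (hx : x ∉ F) (hx' : x ∈ F') : 2 * F.card + 1 ≤ F'.card := by
  classical
  have k2 := hR.two
  have c := Finset.card_mul_le_card_mul (s := F) (t := (F' \ F).erase x) (m := k - 1) (n := k - 1)
    (fun a y => R a x y) (fun a ha => by
      have xa : x ≠ a := fun e => hx (e ▸ ha)
      have o := hR.card a x xa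
      rw [← clo_card] at o
      have m : x ∈ Finset.univ.filter fun c => R a x c := by simpa using hR.refl a x xa
      rw [← o, ← Finset.card_erase_of_mem m]
      refine Finset.card_le_card fun y hy => ?_
      have hy' := Finset.mem_erase.1 hy
      have r := (Finset.mem_filter.1 hy'.2).2
      rw [Finset.mem_bipartiteAbove]
      refine ⟨Finset.mem_erase.2 ⟨hy'.1, Finset.mem_sdiff.2 ⟨hF' a (hs ha) x hx' y r, fun h => ?_⟩⟩, r⟩
      exact hx (hF a ha y h x (hR.symm _ _ _ r)))
    (fun y hy => by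
      rw [← tri_c1 hT hR (Finset.mem_erase.1 hy).1.symm, ← clo_card]
      refine Finset.card_le_card fun a ha => ?_
      simpa using ((Finset.mem_bipartiteBelow _).1 ha).2)
  have c1 := Nat.le_of_mul_le_mul_right c (by omega)
  rw [Finset.card_erase_of_mem (Finset.mem_sdiff.2 ⟨hx', hx⟩), Finset.card_sdiff_of_subset hs] at c1
  have : F.card < F'.card := Finset.card_lt_card ⟨hs, fun h => hx (h hx')⟩
  omega

theorem clo_gen {G : Subgroup (Perm α)} {R : α → α → α → Prop} {k : ℕ} (hT : Tr G 2)
    (hR : Tri G R k) (i : ℕ) : ∃ S : Finset α, S.card ≤ i ∧ ∀ F, Clsd R F → S ⊆ F →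
      F = Finset.univ ∨ 2 ^ i ≤ F.card + 1 := by
  classical
  induction i with
  | zero => exact ⟨∅, le_rfl, fun F _ _ => Or.inr (by simp)⟩
  | succ i ih =>
    obtain ⟨S, hS, h⟩ := ih
    let F0 : Finset α := Finset.univ.filter fun y => ∀ F, Clsd R F → S ⊆ F → y ∈ F
    have m0 : ∀ y, y ∈ F0 ↔ ∀ F, Clsd R F → S ⊆ F → y ∈ F := fun y => by simp [F0]
    have c0 : Clsd R F0 := fun a ha b hb c r => (m0 c).2 fun F hF hs =>
      hF a ((m0 a).1 ha F hF hs) b ((m0 b).1 hb F hF hs) c r
    have s0 : S ⊆ F0 := fun y hy => (m0 y).2 fun F _ hs => hs hy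
    by_cases hu : F0 = Finset.univ
    · refine ⟨S, by omega, fun F hF hs => Or.inl (Finset.eq_univ_iff_forall.2 fun y => ?_)⟩
      exact (m0 y).1 (hu ▸ Finset.mem_univ y) F hF hs
    obtain ⟨x, hx⟩ : ∃ x, x ∉ F0 := by
      by_contra h
      push Not at h
      exact hu (Finset.eq_univ_iff_forall.2 h)
    refine ⟨insert x S, (Finset.card_insert_le _ _).trans (by omega), fun F hF hs => Or.inr ?_⟩
    have h1 := (h F0 c0 s0).resolve_left hu
    have h2 := clo_grow hT hR c0 hF
      (fun y hy => (m0 y).1 hy F hF ((Finset.subset_insert _ _).trans hs)) hx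
      (hs (Finset.mem_insert_self _ _))
    rw [pow_succ]
    omega

theorem clo_fix {G : Subgroup (Perm α)} {R : α → α → α → Prop} {k p : ℕ} (hR : Tri G R k)
    (hp : p.Prime) (hk : k ≤ p) {g : Perm α} (hg : g ∈ G) (hgp : g ^ p = 1) :
    Clsd R (Finset.univ.filter fun x => g x = x) := by
  classical
  intro a ha b hb c r
  simp only [Finset.mem_filter, Finset.mem_univ, true_and] at ha hb ⊢
  by_contra hc
  have pa : ∀ i : ℕ, (g ^ i) a = a := fun i => Perm.pow_apply_eq_self_of_apply_eq_self ha i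
  have pb : ∀ i : ℕ, (g ^ i) b = b := fun i => Perm.pow_apply_eq_self_of_apply_eq_self hb i
  have ba := (hR.ne a b c r).1
  have o := hR.card a b ba
  rw [← clo_card] at o
  have m : b ∈ Finset.univ.filter fun c => R a b c := by simpa using hR.refl a b ba
  have := Finset.card_le_card_of_injOn (s := Finset.range p)
    (t := (Finset.univ.filter fun c => R a b c).erase b) (fun i => (g ^ i) c) (fun i _ => by
      have h1 := hR.inv _ (G.pow_mem hg i) a b c r
      rw [pa, pb] at h1
      simp only [Finset.coe_erase, Set.mem_sdiff, Finset.mem_coe, Finset.mem_filter, Finset.mem_univ,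
        true_and, Set.mem_singleton_iff]
      refine ⟨h1, fun e => hc ?_⟩
      rw [(g ^ i).injective (e.trans (pb i).symm), hb])
    (fun i hi j hj e => pow_apply_inj hp hgp hc (by simpa using hi) (by simpa using hj) e)
  rw [Finset.card_range, Finset.card_erase_of_mem m, o] at this
  have := hR.two
  omega

theorem tri_clo {G : Subgroup (Perm α)} {R : α → α → α → Prop} {k : ℕ} (hT : Tr G 2)
    (hR : Tri G R k) : ∃ K ≤ G, (∀ p : ℕ, p.Prime → p ∣ Nat.card K → p < k) ∧
      Nat.card G ≤ Fintype.card α ^ (Nat.log 2 (Fintype.card α) + 1) * Nat.card K := by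
  classical
  obtain ⟨S, hS, h⟩ := clo_gen hT hR (Nat.log 2 (Fintype.card α) + 1)
  let K : Subgroup (Perm α) := G ⊓ fixingSubgroup (Perm α) (S : Set α)
  have mK : ∀ g, g ∈ K ↔ g ∈ G ∧ ∀ x ∈ S, g x = x := fun g => by
    simp [K, mem_fixingSubgroup_iff]
  have hn := hR.half
  refine ⟨K, inf_le_left, fun p hp hd => not_le.1 fun hk => ?_, ?_⟩
  · have := Fact.mk hp
    obtain ⟨g, hg⟩ := exists_prime_orderOf_dvd_card' p hd
    have g1 : (g : Perm α) ^ p = 1 := by
      rw [← hg, ← Subgroup.coe_pow, pow_orderOf_eq_one, Subgroup.coe_one]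
    have hF := clo_fix hR hp hk ((mK g).1 g.2).1 g1
    have hu : (Finset.univ.filter fun x => (g : Perm α) x = x) = Finset.univ := by
      by_contra hu
      have h1 := (h _ hF fun x hx => by simpa using ((mK g).1 g.2).2 x hx).resolve_left hu
      have h2 := Finset.card_lt_card (Finset.ssubset_univ_iff.2 hu)
      have h3 := Nat.lt_pow_succ_log_self one_lt_two (Fintype.card α)
      rw [Finset.card_univ] at h2
      omega
    have : g = 1 := Subtype.ext (Perm.ext fun x => by
      simpa using Finset.eq_univ_iff_forall.1 hu x)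
    rw [this, orderOf_one] at hg
    exact hp.one_lt.ne hg
  · refine (card_le_fix G S K fun g hg hf => (mK g).2 ⟨hg, hf⟩).trans (Nat.mul_le_mul_right _ ?_)
    exact Nat.pow_le_pow_right (by omega) hS

end CfsgLib.Psx
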