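import Cfsg.Agent.Lib.Psx.NLib2

set_option autoImplicit false

namespace CfsgLib.Psx

/-- `q` cycles of length `p` are not excluded -/
def Feas (n1 p D q : ℕ) : Prop := D ≤ q * p ∧ (p ≤ q ∨ D ≤ 2 * q ∨ n1 ≤ q * p + q * (q - 1))

instance (n1 p D q : ℕ) : Decidable (Feas n1 p D q) := by unfold Feas; infer_instance

structure FU (n t N d : ℕ) : Prop where
  cu : CaseU n t N d
  base : ∀ b, (n + 1 - t) * (n + 1 - t - 1) * (n + 1 - t - d) ^ b < (n + 1 - t) ^ b →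
    N ≤ n ^ (t - 1 + b)
  alt : 5 ≤ n + 1 - t →
    ∃ N1 d1, N ≤ n ^ (t - 1) * N1 ∧ Com (n + 1 - t) 1 N1 ∧ CaseU (n + 1 - t) 1 N1 d1

structure FI (n t N k : ℕ) : Prop where
  ci : CaseI n t N k
  clo : ∃ M, M ∣ N ∧ (∀ p, p.Prime → p ∣ M → p < k) ∧
    N ≤ n ^ (t - 2 + Nat.log 2 (n + 2 - t) + 1) * M

/-- chunks `(lo, hi, T, D, K)` covering `[161, 16384]` -/
def TL : List (ℕ × ℕ × ℕ × ℕ × ℕ) :=
  [(161, 165, 6, 11, 8), (166, 172, 5, 11, 9), (173, 174, 7, 12, 9), (175, 176, 8, 12, 9),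
   (177, 182, 7, 12, 9), (183, 189, 6, 12, 9), (190, 197, 7, 12, 9), (198, 205, 6, 12, 9),
   (206, 209, 7, 13, 9), (210, 214, 8, 13, 9), (215, 225, 7, 13, 10), (226, 239, 6, 13, 10),
   (240, 251, 7, 13, 10), (252, 264, 8, 14, 11), (265, 281, 7, 14, 11), (282, 292, 8, 15, 11),
   (293, 302, 10, 15, 11), (303, 314, 8, 15, 11), (315, 329, 8, 15, 12), (330, 345, 9, 16, 12),
   (346, 361, 10, 16, 13), (362, 383, 8, 16, 13), (384, 407, 8, 17, 14), (408, 431, 9, 17, 14),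
   (432, 453, 10, 18, 14), (454, 481, 9, 18, 14), (482, 514, 10, 19, 15), (515, 537, 11, 19, 16),
   (538, 553, 14, 20, 16), (554, 591, 10, 20, 16), (592, 641, 8, 21, 17), (642, 692, 10, 22, 18),
   (693, 745, 11, 22, 18), (746, 801, 11, 23, 19), (802, 874, 9, 24, 20), (875, 944, 13, 25, 21),
   (945, 1031, 10, 26, 22), (1032, 1136, 11, 27, 23), (1137, 1241, 10, 28, 24),
   (1242, 1351, 15, 30, 25), (1352, 1487, 11, 31, 26), (1488, 1653, 11, 32, 28),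
   (1654, 1821, 12, 34, 29), (1822, 2022, 11, 36, 30), (2023, 2244, 12, 38, 32),
   (2245, 2499, 11, 40, 34), (2500, 2786, 16, 42, 36), (2787, 3100, 14, 44, 38),
   (3101, 3455, 14, 46, 40), (3456, 3867, 16, 49, 43), (3868, 4327, 16, 52, 45),
   (4328, 4863, 14, 55, 48), (4864, 5468, 16, 58, 51), (5469, 6177, 15, 61, 54),
   (6178, 6997, 15, 65, 58), (6998, 7925, 14, 69, 62), (7926, 8995, 17, 74, 65),
   (8996, 10225, 16, 78, 70), (10226, 11630, 19, 83, 74), (11631, 13284, 19, 89, 80),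
   (13285, 15127, 18, 95, 85), (15128, 16384, 19, 101, 89)]

theorem TL_cover {n : ℕ} (h1 : 161 ≤ n) (h2 : n ≤ 16384) : ∃ x ∈ TL, x.1 ≤ n ∧ n ≤ x.2.1 := by
  simp only [TL, List.mem_cons, List.not_mem_nil, or_false, exists_eq_or_imp, exists_eq_left]
  omega

end CfsgLib.Psx
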