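import Cfsg.Agent.Lib.Psx.UU
import Cfsg.Agent.Lib.Psx.II
import Cfsg.Agent.Lib.Psx.Case
import Cfsg.Agent.Lib.Psx.Com
import Cfsg.Agent.Lib.Psx.Clo
import Cfsg.Agent.Lib.Psx.QDef

set_option autoImplicit false

namespace CfsgLib.Psx

open Equiv

variable {α : Type*} [Fintype α] [DecidableEq α]

theorem tr_two_of_alt {H : Subgroup (Perm α)} (hA : alternatingGroup α ≤ H)
    (hn : 4 ≤ Fintype.card α) : Tr H 2 := by
  intro Δ hΔ σ
  by_cases hσ : σ ∈ alternatingGroup α
  · exact ⟨σ, hA hσ, fun _ _ => rfl⟩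
  have h2 : 1 < (Δᶜ).card := by rw [Finset.card_compl]; omega
  obtain ⟨a, ha, b, hb, hab⟩ := Finset.one_lt_card.mp h2
  rw [Finset.mem_compl] at ha hb
  refine ⟨σ * swap a b, hA ?_, fun x hx => ?_⟩
  · rw [Perm.mem_alternatingGroup] at hσ ⊢
    rw [map_mul, Perm.sign_swap hab]
    rcases Int.units_eq_one_or (Perm.sign σ) with h | h
    · exact absurd h hσ
    · rw [h]; simp
  · have xa : x ≠ a := fun h => ha (h ▸ hx)
    have xb : x ≠ b := fun h => hb (h ▸ hx)
    rw [Perm.mul_apply, swap_apply_of_ne_of_ne xa xb]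

omit [Fintype α] in
theorem card_res_dvd (G : Subgroup (Perm α)) (Δ : Finset α) :
    Nat.card (res G Δ) ∣ Nat.card G := by
  have hinj : Function.Injective (Perm.ofSubtype (p := fun x => x ∉ Δ) : _ →* Perm α) :=
    Perm.ofSubtype_injective
  have h1 : (res G Δ).map Perm.ofSubtype ≤ G := Subgroup.map_comap_le _ _
  rw [← Subgroup.card_map_of_injective (K := res G Δ) hinj]
  exact Subgroup.card_dvd_of_le h1

theorem f_u {G : Subgroup (Perm α)} {t : ℕ} (ht : 1 ≤ t) (hT : Tr G t) {Δ : Finset α}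
    (hΔ : Δ.card = t - 1) (hP : Prim (res G Δ)) (h2 : ¬ Tr (res G Δ) 2)
    (hn : 1 ≤ Fintype.card α) : ∃ d, FU (Fintype.card α) t (Nat.card G) d := by
  obtain ⟨d, hd, hD⟩ := case_u ht hT hΔ hP h2
  have hle : Δ.card ≤ Fintype.card α := Finset.card_le_univ Δ
  have e1 : Fintype.card α + 1 - t = Fintype.card α - Δ.card := by omega
  refine ⟨d, hd, fun b hb => ?_, fun h5 => ?_⟩
  · rw [e1] at hb
    rw [← hΔ]
    exact u_base hD hb hn
  · have hc : Fintype.card {x // x ∉ Δ} = Fintype.card α + 1 - t := by rw [card_compl, e1]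
    have hA : ¬ alternatingGroup _ ≤ res G Δ := fun hA => h2 (tr_two_of_alt hA (by omega))
    obtain ⟨t', ht', hT', h⟩ := case_split hP hA
    have h1 : t' = 1 := by
      by_contra hne
      exact h2 (hT'.mono (by omega))
    subst h1
    rcases h with ⟨Δ', hΔ', h3, h4⟩ | ⟨h3, -⟩
    · obtain ⟨d1, hd1, -⟩ := case_u le_rfl hT' hΔ' h3 h4
      refine ⟨Nat.card (res G Δ), d1, ?_, ?_, ?_⟩
      · rw [← hΔ]; exact card_le_res G Δ
      · rw [← hc]; exact com hP hA (by omega) le_rfl hT'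
      · rw [← hc]; exact hd1
    · omega

theorem f_i {G : Subgroup (Perm α)} {t k : ℕ} (ht : 2 ≤ t) (hT : Tr G t) {Δ : Finset α}
    (hΔ : Δ.card = t - 2) {R : _} (h2 : Tr (res G Δ) 2) (hR : Tri (res G Δ) R k) :
    FI (Fintype.card α) t (Nat.card G) k := by
  refine ⟨case_i ht hT hΔ h2 hR, ?_⟩
  obtain ⟨K, hK, hp, hc⟩ := tri_clo h2 hR
  have hle : Δ.card ≤ Fintype.card α := Finset.card_le_univ Δ
  have e1 : Fintype.card {x // x ∉ Δ} = Fintype.card α + 2 - t := by rw [card_compl]; omega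
  refine ⟨Nat.card K, (Subgroup.card_dvd_of_le hK).trans (card_res_dvd G Δ), hp, ?_⟩
  rw [e1] at hc
  calc Nat.card G ≤ Fintype.card α ^ Δ.card * Nat.card (res G Δ) := card_le_res G Δ
    _ ≤ Fintype.card α ^ Δ.card *
        (Fintype.card α ^ (Nat.log 2 (Fintype.card α + 2 - t) + 1) * Nat.card K) := by
      refine Nat.mul_le_mul_left _ (hc.trans (Nat.mul_le_mul_right _ ?_))
      exact Nat.pow_le_pow_left (by omega) _
    _ = _ := by rw [hΔ, ← mul_assoc, ← pow_add, add_assoc]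

end CfsgLib.Psx
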