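import Cfsg.Agent.Lib.Psx.QT

set_option autoImplicit false
set_option Elab.async false

namespace CfsgLib.Psx

namespace Q2I

def isP (m : ℕ) : Bool := Nat.ble 2 m && [2, 3, 5, 7, 11, 13].all fun q => q == m || m % q != 0

theorem isP_of {p : ℕ} (hp : p.Prime) : isP p = true := by
  simp only [isP, Bool.and_eq_true, Nat.ble_eq, List.all_eq_true, Bool.or_eq_true, beq_iff_eq, bne_iff_ne]
  refine ⟨hp.two_le, fun q hq => ?_⟩
  by_cases e : p % q = 0
  · rcases (Nat.dvd_prime hp).1 (Nat.dvd_of_mod_eq_zero e) with k | k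
    · simp [k] at hq
    · exact .inl k
  · exact .inr e

def tm (hi T K p : ℕ) : ℕ := p ^ (vf p (hi / p) +
  min ((min K (hi / (2 * (p - 1))) + T) / p + 2 + Nat.log2 (hi / (2 * (p - 1)))) (hi / p - 1))

def PP (hi T K : ℕ) : ℕ := (((List.range K).filter isP).map (tm hi T K)).prod

def lb (m x : ℕ) : ℕ → ℕ → ℕ
  | 0, b => b
  | f + 1, b => cond (Nat.ble x (m ^ b)) b (lb m x f (b + 1))

def ckb (lo hi T m b : ℕ) : Bool :=
  Nat.ble (hi * hi) (m ^ b) && Nat.ble (hi ^ (T - 2) * (hi * m.factorial) ^ b) (4 ^ lo)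

def ck (lo hi T K : ℕ) : Bool :=
  Nat.ble 8 lo && Nat.ble (3 * K + 1) (lo + 2 - T) && Nat.ble (2 * K) lo &&
    Nat.ble (hi ^ (T - 2 + Nat.log2 hi + 1) * PP hi T K) (4 ^ lo) &&
    (List.range (hi / (K + 1) + 1)).all fun m => Nat.ble m 1 || ckb lo hi T m (lb m (hi * hi) 40 0)

theorem chunk {lo hi T K n t N k : ℕ} (ok : ck lo hi T K = true) (h1 : lo ≤ n) (h2 : n ≤ hi) (hT : t ≤ T)
    (hc : Com n t N) (h : FI n t N k) : N ≤ 4 ^ n := by
  simp only [ck, ckb, Bool.and_eq_true, Nat.ble_eq, List.all_eq_true, Bool.or_eq_true, List.mem_range] at ok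
  obtain ⟨⟨⟨⟨o1, o2⟩, o3⟩, o4⟩, o5⟩ := ok
  refine le_trans ?_ (Nat.pow_le_pow_right (by norm_num) h1)
  have a1 := h.ci.half
  have a2 := h.ci.two
  have a3 := h.ci.t2
  by_cases hk : k ≤ K
  · rw [Nat.log2_eq_log_two] at o4
    refine ((h.clo_le hc hT h2 hk).trans (Nat.mul_le_mul_left _ ?_)).trans o4
    rw [PP, ← List.prod_toFinset _ (List.nodup_range.filter _)]
    refine le_trans (Finset.prod_le_prod' (g := tm hi T K) fun p hp => ?_)
      (Finset.prod_le_prod_of_subset_of_one_le' (fun p hp => ?_) fun p hp _ => ?_)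
    · obtain ⟨b1, hp⟩ := mem_PR.1 hp
      have b2 := h.ci.bound1 (by omega) hp hT h2 hk
      have b3 := hc.half (by omega) hp (by omega)
      have b4 : n / p ≤ hi / p := Nat.div_le_div_right h2
      have b5 := vf_ge hp b4
      rw [tm, Nat.log2_eq_log_two]
      exact Nat.pow_le_pow_right hp.pos (by omega)
    · obtain ⟨b1, hp⟩ := mem_PR.1 hp
      exact List.mem_toFinset.2 (List.mem_filter.2 ⟨List.mem_range.2 (by omega), isP_of hp⟩)
    · have := (List.mem_filter.1 (List.mem_toFinset.1 hp)).2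
      simp only [isP, Bool.and_eq_true, Nat.ble_eq] at this
      exact Nat.pow_pos (by omega)
  · have b1 : 2 ≤ (n + 2 - t - 1) / k := (Nat.le_div_iff_mul_le (by omega)).2 (by omega)
    have b2 : (n + 2 - t - 1) / k ≤ hi / (K + 1) := Nat.div_le_div (by omega) (by omega) (by omega)
    rcases o5 _ (Nat.lt_succ_of_le b2) with b3 | ⟨b3, b4⟩
    · omega
    · exact (h.ci.greM hT h2 b3).trans b4

theorem ckTL : (TL.all fun x => ck x.1 x.2.1 x.2.2.1 x.2.2.2.2) = true := by decide +kernel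

theorem ck1 : ck 16385 21131 435 101 = true := by decide +kernel
theorem ck2 : ck 21132 27998 501 116 = true := by decide +kernel
theorem ck3 : ck 27999 38479 588 137 = true := by decide +kernel
theorem ck4 : ck 38480 54737 699 163 = true := by decide +kernel
theorem ck5 : ck 54738 65536 768 179 = true := by decide +kernel

end Q2I

theorem q2I {n t N k : ℕ} (h1 : 161 ≤ n) (h2 : n ≤ 65536) (hc : Com n t N) (h : FI n t N k) :
    N ≤ 4 ^ n := by
  by_cases h3 : n ≤ 16384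
  · obtain ⟨x, hx, a1, a2⟩ := TL_cover h1 h3
    exact Q2I.chunk (List.all_eq_true.1 Q2I.ckTL x hx) a1 a2 (hc.t_tab hx a1 a2) hc h
  have t1 := hc.t_le (by omega)
  have sq : ∀ r, n < (r + 1) * (r + 1) → t ≤ 3 * r := fun r hr => by
    have : Nat.sqrt n < r + 1 := Nat.sqrt_lt.2 hr
    omega
  by_cases a1 : n ≤ 21131
  · exact Q2I.chunk Q2I.ck1 (by omega) a1 (sq 145 (by omega)) hc h
  by_cases a2 : n ≤ 27998
  · exact Q2I.chunk Q2I.ck2 (by omega) a2 (sq 167 (by omega)) hc h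
  by_cases a3 : n ≤ 38479
  · exact Q2I.chunk Q2I.ck3 (by omega) a3 (sq 196 (by omega)) hc h
  by_cases a4 : n ≤ 54737
  · exact Q2I.chunk Q2I.ck4 (by omega) a4 (sq 233 (by omega)) hc h
  · exact Q2I.chunk Q2I.ck5 (by omega) h2 (sq 256 (by omega)) hc h

end CfsgLib.Psx
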