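import Cfsg.Agent.Lib.Psx.QLib
import Cfsg.Agent.Lib.Psx.Num3U

set_option autoImplicit false

namespace CfsgLib.Psx

def OKW (lo hi r b D : ℕ) : Prop :=
  25 ≤ lo ∧ hi < (r + 1) * (r + 1) ∧ 3 * r ≤ lo ∧
    3 * (D - 1) * (D - 1 - 1) < 2 * (lo + 1 - 3 * r - 1) ∧
    (D - 1) * (D - 1) + (D - 1) + 1 < lo + 1 - 3 * r ∧
    hi * hi * (hi - D) ^ b < hi ^ b ∧ hi ^ (3 * r - 1 + b) ≤ 4 ^ lo

instance (lo hi r b D : ℕ) : Decidable (OKW lo hi r b D) := by unfold OKW; infer_instance

theorem chunkW {lo hi r b D : ℕ} (ok : OKW lo hi r b D) {n t N d : ℕ} (h1 : lo ≤ n) (h2 : n ≤ hi)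
    (hc : Com n t N) (h : FU n t N d) : N ≤ 4 ^ n := by
  obtain ⟨o1, o2, o3, o4, o5, o6, o7⟩ := ok
  have t2 := hc.t_le (by omega)
  have t3 : Nat.sqrt n < r + 1 := Nat.sqrt_lt.2 (by omega)
  have hT : t ≤ 3 * r := by omega
  have hD : D ≤ d :=
    D_le (n0 := lo + 1 - 3 * r) h.cu.d3 h.cu.db (by omega) (.inr (by unfold DB; omega))
  exact (h.base_le hc hT h2 hD o6 (by omega)).trans
    (o7.trans (Nat.pow_le_pow_right (by norm_num) h1))

theorem okW0 : OKW 56000 56407 237 6385 193 := by decide +kernel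
theorem okW1 : OKW 56408 57015 238 6427 194 := by decide +kernel
theorem okW2 : OKW 57016 57790 240 6489 195 := by decide +kernel
theorem okW3 : OKW 57791 58730 242 6571 196 := by decide +kernel
theorem okW4 : OKW 58731 60058 245 6665 198 := by decide +kernel
theorem okW5 : OKW 60059 61770 248 6804 200 := by decide +kernel
theorem okW6 : OKW 61771 64084 253 6978 203 := by decide +kernel
theorem okW7 : OKW 64085 67022 258 7221 206 := by decide +kernel
theorem okW8 : OKW 67023 71100 266 7519 211 := by decide +kernel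
theorem okW9 : OKW 71101 76656 276 7936 217 := by decide +kernel
theorem okW10 : OKW 76657 84683 291 8493 226 := by decide +kernel
theorem okW11 : OKW 84684 96176 310 9302 237 := by decide +kernel
theorem okW12 : OKW 96177 113602 337 10443 253 := by decide +kernel
theorem okW13 : OKW 113603 141102 375 12157 275 := by decide +kernel
theorem okW14 : OKW 141103 186927 432 14819 306 := by decide +kernel
theorem okW15 : OKW 186928 270499 520 19158 353 := by decide +kernel
theorem okW16 : OKW 270500 438791 662 26878 424 := by decide +kernel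
theorem okW17 : OKW 438792 830249 911 41898 540 := by decide +kernel
theorem okW18 : OKW 830250 1048576 1024 39064 744 := by decide +kernel

theorem q2W {n t N d : ℕ} (h1 : 56000 ≤ n) (h2 : n ≤ 1048576) (hc : Com n t N) (h : FU n t N d) :
    N ≤ 4 ^ n := by
  by_cases a0 : n ≤ 56407
  · exact chunkW okW0 (by omega) a0 hc h
  by_cases a1 : n ≤ 57015
  · exact chunkW okW1 (by omega) a1 hc h
  by_cases a2 : n ≤ 57790
  · exact chunkW okW2 (by omega) a2 hc h
  by_cases a3 : n ≤ 58730
  · exact chunkW okW3 (by omega) a3 hc h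
  by_cases a4 : n ≤ 60058
  · exact chunkW okW4 (by omega) a4 hc h
  by_cases a5 : n ≤ 61770
  · exact chunkW okW5 (by omega) a5 hc h
  by_cases a6 : n ≤ 64084
  · exact chunkW okW6 (by omega) a6 hc h
  by_cases a7 : n ≤ 67022
  · exact chunkW okW7 (by omega) a7 hc h
  by_cases a8 : n ≤ 71100
  · exact chunkW okW8 (by omega) a8 hc h
  by_cases a9 : n ≤ 76656
  · exact chunkW okW9 (by omega) a9 hc h
  by_cases a10 : n ≤ 84683
  · exact chunkW okW10 (by omega) a10 hc h
  by_cases a11 : n ≤ 96176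
  · exact chunkW okW11 (by omega) a11 hc h
  by_cases a12 : n ≤ 113602
  · exact chunkW okW12 (by omega) a12 hc h
  by_cases a13 : n ≤ 141102
  · exact chunkW okW13 (by omega) a13 hc h
  by_cases a14 : n ≤ 186927
  · exact chunkW okW14 (by omega) a14 hc h
  by_cases a15 : n ≤ 270499
  · exact chunkW okW15 (by omega) a15 hc h
  by_cases a16 : n ≤ 438791
  · exact chunkW okW16 (by omega) a16 hc h
  by_cases a17 : n ≤ 830249
  · exact chunkW okW17 (by omega) a17 hc h
  exact chunkW okW18 (by omega) h2 hc h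

theorem q3_log {L : ℕ} (hL : 20 ≤ L) : (2 * (L + 1) ^ 2) ^ 2 ≤ 2 ^ L := by
  induction L, hL using Nat.le_induction with
  | base => norm_num
  | succ L hL ih =>
    have h1 : 20 * (L + 1 + 1) ≤ 22 * (L + 1) := by omega
    have h2 := Nat.pow_le_pow_left h1 4
    rw [mul_pow, mul_pow] at h2
    have e1 : (2 * (L + 1 + 1) ^ 2) ^ 2 = 4 * (L + 1 + 1) ^ 4 := by ring
    have e2 : (2 * (L + 1) ^ 2) ^ 2 = 4 * (L + 1) ^ 4 := by ring
    rw [e1, pow_succ 2 L]
    rw [e2] at ih
    omega

theorem q3_bern (x d m : ℕ) : x ^ m * (x + m * d) ≤ x * (x + d) ^ m := by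
  induction m with
  | zero => simp
  | succ m ih =>
    calc x ^ (m + 1) * (x + (m + 1) * d) ≤ x ^ m * (x + m * d) * (x + d) := by
          rw [pow_succ, mul_assoc, mul_assoc]
          exact Nat.mul_le_mul_left _ (by nlinarith [Nat.zero_le (m * d * d)])
      _ ≤ x * (x + d) ^ m * (x + d) := Nat.mul_le_mul_right _ ih
      _ = _ := by ring

theorem q3_half {n d m : ℕ} (hm : n ≤ m * d) : 2 * (n - d) ^ m ≤ n ^ m ∨ n - d = 0 := by
  by_cases h0 : n - d = 0
  · exact Or.inr h0
  left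
  have h := q3_bern (n - d) d m
  rw [show n - d + d = n by omega] at h
  refine Nat.le_of_mul_le_mul_left (le_trans ?_ h) (Nat.pos_of_ne_zero h0)
  calc (n - d) * (2 * (n - d) ^ m) = (n - d) ^ m * (n - d + (n - d)) := by ring
    _ ≤ _ := Nat.mul_le_mul_left _ (by omega)

theorem q3U {n t N d : ℕ} (h1 : 1048576 ≤ n) (hc : Com n t N) (h : FU n t N d) : N ≤ 4 ^ n := by
  have hT := hc.t_le (by omega)
  have r1 := Nat.sqrt_le n
  have r2 := Nat.sqrt_le_add n
  have hr : 1024 ≤ Nat.sqrt n := Nat.le_sqrt.2 h1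
  have l1 : 20 ≤ Nat.log 2 n := Nat.le_log_of_pow_le one_lt_two h1
  have l2 := Nat.lt_pow_succ_log_self one_lt_two n
  have l3 : 2 * (Nat.log 2 n + 1) ^ 2 ≤ Nat.sqrt n :=
    Nat.le_sqrt'.2 ((q3_log l1).trans (Nat.pow_log_le_self 2 (by omega)))
  generalize Nat.sqrt n = r at *
  generalize Nat.log 2 n = L at *
  have s := Nat.mul_le_mul_right r hr
  have d3 := h.cu.d3
  have hd := n3u_d (by omega) (by omega) h.cu.db (r := r)
  have hx := n3u_div (c := 1) (x := n / d) (n := n) (r := r) (by omega) hd (by omega)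
    (by rw [one_mul]; exact Nat.div_mul_le_self n d)
  have hm : n ≤ (n / d + 1) * d := by
    have := Nat.div_add_mod n d
    have := Nat.mod_lt n (show 0 < d by omega)
    rw [add_mul, mul_comm (n / d)]
    omega
  generalize n / d = x at *
  have nn : n * n < 2 ^ (2 * L + 2) := by
    calc n * n < 2 ^ (L + 1) * 2 ^ (L + 1) := Nat.mul_lt_mul'' l2 l2
      _ = _ := by ring
  have hb : n * n * (n - d) ^ ((x + 1) * (2 * L + 2)) < n ^ ((x + 1) * (2 * L + 2)) := by
    rcases q3_half hm with e | e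
    · by_cases h0 : n - d = 0
      · rw [h0, zero_pow (by positivity), mul_zero]; positivity
      calc n * n * (n - d) ^ ((x + 1) * (2 * L + 2))
          < 2 ^ (2 * L + 2) * (n - d) ^ ((x + 1) * (2 * L + 2)) :=
            Nat.mul_lt_mul_of_pos_right nn (Nat.pow_pos (by omega))
        _ = (2 * (n - d) ^ (x + 1)) ^ (2 * L + 2) := by rw [mul_pow, ← pow_mul]
        _ ≤ (n ^ (x + 1)) ^ (2 * L + 2) := Nat.pow_le_pow_left e _
        _ = _ := by rw [← pow_mul]
    · rw [e, zero_pow (by positivity), mul_zero]; positivity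
  refine (h.base_le hc hT le_rfl le_rfl hb (by omega)).trans ?_
  calc n ^ (3 * r - 1 + (x + 1) * (2 * L + 2)) ≤ (2 ^ (L + 1)) ^ (3 * r + (x + 1) * (2 * L + 2)) :=
        (Nat.pow_le_pow_left l2.le _).trans (Nat.pow_le_pow_right (by positivity) (by omega))
    _ = 2 ^ (3 * (r * (L + 1)) + (x + 1) * (2 * (L + 1) ^ 2)) := by rw [← pow_mul]; congr 1; ring
    _ ≤ 2 ^ (2 * n) := by
        refine Nat.pow_le_pow_right (by norm_num) ?_
        have a1 : (x + 1) * (2 * (L + 1) ^ 2) ≤ (x + 1) * r := Nat.mul_le_mul_left _ l3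
        have a2 : 4 * (x + 1) * r ≤ (5 * r + 14) * r := Nat.mul_le_mul_right _ (by omega)
        have a3 : 42 * (L + 1) ≤ r := by nlinarith
        have a4 : r * (42 * (L + 1)) ≤ r * r := Nat.mul_le_mul_left _ a3
        nlinarith
    _ = 4 ^ n := by rw [pow_mul]; norm_num

end CfsgLib.Psx
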