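import Cfsg.Agent.Lib.Psx.NDef
import Cfsg.Agent.Lib.Psx.NTool

set_option autoImplicit false

namespace CfsgLib.Psx

theorem qg_w (m : ℕ) : 0 ≤ Real.log m * (1 / ((m : ℝ) * ((m : ℝ) - 1))) :=
  mul_nonneg (Real.log_natCast_nonneg m) (nt_w m)

theorem qg_log {p a b : ℕ} (hp : 0 < p) (h : p ^ a ≤ 2 ^ b) : a * Real.log p ≤ b * Real.log 2 := by
  rw [← Real.log_pow, ← Real.log_pow]
  exact Real.log_le_log (by positivity) (by exact_mod_cast h)

theorem qg_sum (X : ℕ) :
    ∑ p ∈ PR X, Real.log p * (1 / ((p : ℝ) * ((p : ℝ) - 1))) ≤ 5 / 4 * Real.log 2 := by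
  have h1 := nt_tele _ (fun j => (Real.log (2 * j - 1) + 2) / (2 * (2 * (j : ℝ) - 1))) 8 (by omega)
    qg_w (fun j hj => by
      have : (8 : ℝ) ≤ j := by exact_mod_cast hj
      exact div_nonneg (add_nonneg (Real.log_nonneg (by linarith)) zero_le_two) (by linarith))
    (fun j hj => by
      have : (8 : ℝ) ≤ j := by exact_mod_cast hj
      push_cast
      obtain ⟨a, ha⟩ : ∃ a : ℝ, a = 2 * j - 1 := ⟨_, rfl⟩
      rw [show 2 * (j : ℝ) + 1 = a + 2 by linarith, show 2 * ((j : ℝ) + 1) - 1 = a + 2 by linarith,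
        ← ha]
      have a0 : 15 ≤ a := by linarith
      have b0 : 0 ≤ Real.log (a + 2) := Real.log_nonneg (by linarith)
      have d := Real.log_le_sub_one_of_pos (show 0 < (a + 2) / a by positivity)
      rw [Real.log_div (by positivity) (by positivity), show (a + 2) / a - 1 = 2 / a by
        field_simp; ring] at d
      generalize Real.log (a + 2) = B at *
      have e : (B - 2 / a + 2) / (2 * a) ≤ (Real.log a + 2) / (2 * a) := by gcongr; linarith
      refine le_trans ?_ (sub_le_sub_right e _)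
      rw [← sub_nonneg, show (B - 2 / a + 2) / (2 * a) - (B + 2) / (2 * (a + 2)) -
        B * (1 / ((a + 2) * (a + 2 - 1))) = B / (a * (a + 2) * (a + 1)) + (a - 2) / (a ^ 2 * (a + 2)) by
          rw [show a + 2 - 1 = a + 1 by ring]; field_simp; ring]
      have : 0 ≤ a - 2 := by linarith
      positivity) X
  refine (nt_split (A := {2, 3, 5, 7, 11, 13}) _ qg_w fun p hp => ?_).trans
    ((add_le_add le_rfl h1).trans ?_)
  · have h3 := (mem_PR.1 hp).2
    by_cases h4 : 2 * 8 + 1 ≤ p
    · exact .inr (Finset.mem_filter.2 ⟨hp, h4⟩)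
    · left
      have : p ≤ 16 := by omega
      interval_cases p <;> first | decide | exact absurd h3 (by decide)
  · rw [Finset.sum_insert (by decide), Finset.sum_insert (by decide), Finset.sum_insert (by decide),
      Finset.sum_insert (by decide), Finset.sum_insert (by decide), Finset.sum_singleton]
    have l3 := qg_log (p := 3) (a := 5) (b := 8) (by norm_num) (by norm_num)
    have l5 := qg_log (p := 5) (a := 3) (b := 7) (by norm_num) (by norm_num)
    have l7 := qg_log (p := 7) (a := 1) (b := 3) (by norm_num) (by norm_num)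
    have l11 := qg_log (p := 11) (a := 2) (b := 7) (by norm_num) (by norm_num)
    have l13 := qg_log (p := 13) (a := 1) (b := 4) (by norm_num) (by norm_num)
    have l15 := qg_log (p := 15) (a := 1) (b := 4) (by norm_num) (by norm_num)
    have l2 := Real.log_two_gt_d9
    push_cast at *
    rw [show (2 : ℝ) * 8 - 1 = 15 by norm_num]
    linarith

theorem tool_G (X n : ℕ) :
    (∏ p ∈ PR X, p ^ padicValNat p (n / p).factorial) ^ 4 ≤ 2 ^ (5 * n) := by
  have pos : ∀ p ∈ PR X, (0 : ℝ) < (p : ℝ) ^ padicValNat p (n / p).factorial := fun p hp => by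
    have := (mem_PR.1 hp).2.pos
    positivity
  have h1 : ∑ p ∈ PR X, (padicValNat p (n / p).factorial : ℝ) * Real.log p ≤
      n * ∑ p ∈ PR X, Real.log p * (1 / ((p : ℝ) * ((p : ℝ) - 1))) := by
    rw [Finset.mul_sum]
    refine Finset.sum_le_sum fun p hp => ?_
    have := Fact.mk (mem_PR.1 hp).2
    rw [mul_left_comm, mul_comm (Real.log p)]
    refine mul_le_mul_of_nonneg_right ?_ (Real.log_natCast_nonneg p)
    refine nt_le this.out.two_le (le_trans (Nat.mul_le_mul_left p ?_) (Nat.mul_div_le n p))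
    rw [sub_one_mul_padicValNat_factorial]
    exact Nat.sub_le _ _
  have h2 := h1.trans (mul_le_mul_of_nonneg_left (qg_sum X) (Nat.cast_nonneg n))
  have : (∏ p ∈ PR X, (p : ℝ) ^ padicValNat p (n / p).factorial) ^ 4 ≤ 2 ^ (5 * n) := by
    rw [← Real.log_le_log_iff (pow_pos (Finset.prod_pos pos) 4) (by positivity), Real.log_pow,
      Real.log_pow, Real.log_prod fun p hp => (pos p hp).ne']
    simp only [Real.log_pow]
    push_cast
    linarith
  exact_mod_cast this

theorem tool_H (X Y : ℕ) : ∏ p ∈ PR X, p ^ (Y / p) ≤ Y ^ Y := by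
  refine le_trans (Nat.le_of_dvd (Nat.factorial_pos Y) ?_) (Nat.factorial_le_pow Y)
  refine Finset.prod_dvd_of_isRelPrime (fun p hp q hq ne => ?_) fun p hp => ?_
  · exact Nat.coprime_iff_isRelPrime.1 (Nat.coprime_pow_primes _ _ (mem_PR.1 hp).2 (mem_PR.1 hq).2 ne)
  · have := Fact.mk (mem_PR.1 hp).2
    rw [padicValNat_dvd_iff_le (Nat.factorial_ne_zero Y), ← padicValNat_mul_div_factorial,
      padicValNat_factorial_mul]
    omega

theorem tool_L3 {n : ℕ} (hn : 65536 ≤ n) : 16 * Nat.log 2 n ≤ Nat.sqrt n := by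
  have k : ∀ L, 16 ≤ L → 16 * L * (16 * L) ≤ 2 ^ L := fun L hL => by
    induction L, hL using Nat.le_induction with
    | base => norm_num
    | succ L hL ih => rw [pow_succ]; nlinarith
  exact Nat.le_sqrt.2 ((k _ (Nat.le_log_of_pow_le (by omega) hn)).trans
    (Nat.pow_log_le_self 2 (by omega)))

end CfsgLib.Psx
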