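import Cfsg.Agent.Lib.Psx.QLib
import Cfsg.Agent.Lib.Psx.QG

set_option autoImplicit false

namespace CfsgLib.Psx

theorem q3I {n t N k : ℕ} (h1 : 65536 ≤ n) (hc : Com n t N) (h : FI n t N k) : N ≤ 4 ^ n := by
  have r1 : 256 ≤ Nat.sqrt n := Nat.le_sqrt.2 h1
  have r2 := Nat.mul_le_mul_right (Nat.sqrt n) r1
  have r3 := Nat.sqrt_le n
  have r4 := Nat.lt_succ_sqrt n
  have l := tool_L3 h1
  have ht := hc.t_le (by omega)
  have nL : n ≤ 2 ^ (Nat.log 2 n + 1) := (Nat.lt_pow_succ_log_self one_lt_two n).le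
  have pw : ∀ a, n ^ a ≤ 2 ^ ((Nat.log 2 n + 1) * a) := fun a => by
    rw [pow_mul]; exact Nat.pow_le_pow_left nL a
  rw [Nat.succ_eq_add_one] at r4
  generalize Nat.sqrt n = r at *
  have l1 := Nat.mul_le_mul_left r l
  have l2 := Nat.mul_le_mul_left (Nat.log 2 n) l
  rw [show (4 : ℕ) = 2 ^ 2 from rfl, ← pow_mul]
  by_cases hk : k ≤ r
  · have e1 := h.clo_le hc ht le_rfl hk
    have e2 : ∏ p ∈ PR (r - 1), p ^ padicValNat p N ≤ ∏ p ∈ PR (r - 1),
        p ^ padicValNat p (n / p).factorial * p ^ (4 * r / p) * p ^ (Nat.log 2 n + 2) :=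
      Finset.prod_le_prod' fun p hp => by
        have pp := (mem_PR.1 hp).2
        have b := h.ci.bound1 (by omega) pp ht le_rfl hk
        have b1 : (min r (n / (2 * (p - 1))) + 3 * r) / p ≤ 4 * r / p := Nat.div_le_div_right (by omega)
        have b2 : Nat.log 2 (n / (2 * (p - 1))) ≤ Nat.log 2 n := Nat.log_mono_right (Nat.div_le_self _ _)
        rw [← pow_add, ← pow_add]
        exact Nat.pow_le_pow_right pp.pos (by omega)
    rw [Finset.prod_mul_distrib, Finset.prod_mul_distrib, Finset.prod_pow] at e2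
    have a := tool_G (r - 1) n
    have b : ∏ p ∈ PR (r - 1), p ^ (4 * r / p) ≤ 2 ^ ((Nat.log 2 n + 5) * (2 * r)) := by
      refine (tool_H _ _).trans ?_
      rw [show (4 * r) ^ (4 * r) = ((4 * r) ^ 2) ^ (2 * r) by rw [← pow_mul]; congr 1; ring, pow_mul 2]
      refine Nat.pow_le_pow_left ?_ _
      rw [show Nat.log 2 n + 5 = Nat.log 2 n + 1 + 4 from rfl, pow_add]
      nlinarith
    have c : (∏ p ∈ PR (r - 1), p) ^ (Nat.log 2 n + 2) ≤ 2 ^ (2 * r * (Nat.log 2 n + 2)) := by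
      rw [pow_mul, pow_mul]
      exact Nat.pow_le_pow_left ((primorial_le_four_pow (r - 1)).trans
        (Nat.pow_le_pow_right (by norm_num) (Nat.sub_le _ _))) _
    have e3 := e1.trans (Nat.mul_le_mul (pw _) (e2.trans (Nat.mul_le_mul (Nat.mul_le_mul_left _ b) c)))
    refine (Nat.pow_le_pow_iff_left four_ne_zero).1 ((Nat.pow_le_pow_left e3 4).trans ?_)
    rw [mul_pow, mul_pow, mul_pow]
    refine (Nat.mul_le_mul_left _ (Nat.mul_le_mul_right _ (Nat.mul_le_mul_right _ a))).trans ?_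
    simp only [← pow_mul, ← pow_add]
    refine Nat.pow_le_pow_right two_pos ?_
    have := Nat.mul_le_mul_left (Nat.log 2 n + 1) (show 3 * r - 2 + Nat.log 2 n + 1 ≤ 3 * r + Nat.log 2 n by omega)
    generalize (Nat.log 2 n + 1) * (3 * r - 2 + Nat.log 2 n + 1) = x at *
    generalize Nat.log 2 n = L at *
    nlinarith
  · have t2 := h.ci.t2
    have hh := h.ci.half
    have m2 : 2 ≤ (n + 2 - t - 1) / k := (Nat.le_div_iff_mul_le (by omega)).2 (by omega)
    have mr : (n + 2 - t - 1) / k ≤ r := Nat.le_of_lt_succ ((Nat.div_lt_iff_lt_mul (by omega)).2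
      (lt_of_lt_of_le (by omega) (Nat.mul_le_mul_left (r + 1) (show r + 1 ≤ k by omega))))
    have e1 := h.ci.greM ht le_rfl (Nat.le_pow_clog m2 _)
    generalize (n + 2 - t - 1) / k = m at *
    have b1 : Nat.clog m (n * n) ≤ (Nat.log 2 n + 1) * 2 := Nat.clog_le_of_le_pow (by
      rw [← pow_two]; exact (pw 2).trans (Nat.pow_le_pow_left m2 _))
    have nn : 1 < n * n := by nlinarith
    have b2 := Nat.pow_pred_clog_lt_self m2 nn
    have b3 := Nat.clog_pos m2 nn
    generalize Nat.clog m (n * n) = b at *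
    have b4 : m ^ b ≤ n ^ 3 := by
      obtain ⟨b, rfl⟩ : ∃ c, b = c + 1 := ⟨b - 1, by omega⟩
      rw [pow_succ, pow_succ, pow_two]
      exact Nat.mul_le_mul b2.le (by omega)
    have b5 : m.factorial ^ b ≤ n ^ (3 * r) := by
      refine (Nat.pow_le_pow_left m.factorial_le_pow b).trans ?_
      rw [← pow_mul, mul_comm, pow_mul, pow_mul]
      exact (Nat.pow_le_pow_left b4 m).trans (Nat.pow_le_pow_right (by positivity) mr)
    rw [mul_pow] at e1
    refine (e1.trans (Nat.mul_le_mul_left _ (Nat.mul_le_mul_left _ b5))).trans ?_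
    rw [← pow_add, ← pow_add]
    refine (pw _).trans (Nat.pow_le_pow_right two_pos ?_)
    refine (Nat.mul_le_mul_left _ (show _ ≤ 6 * r + 2 * Nat.log 2 n by omega)).trans ?_
    generalize Nat.log 2 n = L at *
    nlinarith

end CfsgLib.Psx
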