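import Cfsg.Agent.Lib.Psx.QLib
import Cfsg.Agent.Lib.Psx.Num2

set_option autoImplicit false

namespace CfsgLib.Psx

theorem prod_toFinset_le (g : ℕ → ℕ) (hg : ∀ p, 1 ≤ g p) (L : List ℕ) :
    ∏ p ∈ L.toFinset, g p ≤ (L.map g).prod := by
  induction L with
  | nil => simp
  | cons a L ih =>
    rw [List.toFinset_cons, List.map_cons, List.prod_cons]
    by_cases h : a ∈ L.toFinset
    · rw [Finset.insert_eq_of_mem h]
      exact ih.trans (Nat.le_mul_of_pos_left _ (hg a))
    · rw [Finset.prod_insert h]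
      exact Nat.mul_le_mul_left _ ih

theorem prod_le_list {X : ℕ} (L : List ℕ) (hL : ∀ p, p.Prime → p ≤ X → p ∈ L) (f g : ℕ → ℕ)
    (hfg : ∀ p, p.Prime → p ≤ X → f p ≤ g p) (hg : ∀ p, 1 ≤ g p) :
    ∏ p ∈ PR X, f p ≤ (L.map g).prod :=
  (Finset.prod_le_prod' fun p hp => hfg p (mem_PR.1 hp).2 (mem_PR.1 hp).1).trans
    ((Finset.prod_le_prod_of_subset_of_one_le' (fun p hp => List.mem_toFinset.2
      (hL p (mem_PR.1 hp).2 (mem_PR.1 hp).1)) fun p _ _ => hg p).trans (prod_toFinset_le g hg L))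

/-- the factor of the prime `p` in a chunk of case U -/
def tmU (lo1 hi D B p : ℕ) : ℕ :=
  bif Nat.blt hi (2 * p) then 1 else
    bif Nat.blt B p then (bif Nat.ble lo1 (hi / p * p + hi / p * (hi / p - 1)) then p else 1) else
      (p - 1 + 1) ^ (vf p (hi / p) +
        min (if Feas lo1 p D (hi / p) then max 1 (hi / MU p D) else 0) (hi / p - 1))

def OKU (L : List ℕ) (lo hi T D B : ℕ) : Prop :=
  T + 8 ≤ lo ∧ 1 ≤ D ∧ hi < B * B ∧ 2 * hi < B * D ∧
    3 * (D - 1) * (D - 1 - 1) < 2 * (lo + 1 - T - 1) ∧ (D - 1) * (D - 1) + (D - 1) + 1 < lo + 1 - T ∧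
    hi ^ (T + 1) * (L.map (tmU (lo + 1 - T) hi D B)).prod ≤ 4 ^ lo

instance (L : List ℕ) (lo hi T D B : ℕ) : Decidable (OKU L lo hi T D B) := by
  unfold OKU; infer_instance

theorem tmU_pos (lo1 hi D B p : ℕ) : 1 ≤ tmU lo1 hi D B p := by
  unfold tmU
  cases Nat.blt hi (2 * p)
  · cases h : Nat.blt B p
    · exact Nat.pow_pos (Nat.succ_pos _)
    · rw [Nat.blt_eq] at h
      cases Nat.ble lo1 (hi / p * p + hi / p * (hi / p - 1))
      · exact le_rfl
      · show 1 ≤ p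
        omega
  · exact le_rfl

theorem tmU_ge {lo1 hi D B n N d p : ℕ} (hc : Com n 1 N) (h : CaseU n 1 N d) (h8 : 8 ≤ n)
    (hD : D ≤ d) (hD1 : 1 ≤ D) (hlo : lo1 ≤ n) (hhi : n ≤ hi) (b1 : hi < B * B) (b2 : 2 * hi < B * D)
    (hp : p.Prime) (h2 : p ≤ n / 2) : p ^ padicValNat p N ≤ tmU lo1 hi D B p := by
  have k1 := h.boundF hD hD1 hp hlo hhi
  have k2 := hc.half h8 hp (by omega)
  have k3 : n / p ≤ hi / p := Nat.div_le_div_right hhi
  have k4 := vf_ge hp k3
  have e1 : Nat.blt hi (2 * p) = false := by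
    rw [← Bool.not_eq_true, Nat.blt_eq]; omega
  unfold tmU
  rw [e1, cond_false]
  cases hB : Nat.blt B p
  · rw [cond_false, Nat.sub_add_cancel hp.pos]
    exact Nat.pow_le_pow_right hp.pos (by omega)
  · rw [Nat.blt_eq] at hB
    rw [cond_true]
    have p2 : hi < p * p := b1.trans_le (Nat.mul_le_mul hB.le hB.le)
    have q1 : hi / p < p := (Nat.div_lt_iff_lt_mul hp.pos).2 p2
    have q0 : hi / p * p ≤ hi := Nat.div_mul_le_self _ _
    have pD : 2 * hi < p * D := b2.trans_le (Nat.mul_le_mul_right _ hB.le)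
    have q2 : 2 * (hi / p) < D := by
      by_contra c
      have := Nat.mul_le_mul_left p (not_lt.1 c)
      rw [mul_left_comm, mul_comm p (hi / p)] at this
      omega
    have v0 : padicValNat p (n / p).factorial = 0 := padicValNat.eq_zero_of_not_dvd fun c => by
      have := (hp.dvd_factorial).1 c
      omega
    have m1 : hi / MU p D = 0 := by
      refine Nat.div_eq_of_lt (lt_of_lt_of_le ?_ (le_max_right _ _))
      rcases min_choice p ((D + 1) / 2) with e | e <;> rw [e]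
      · exact p2
      · have := Nat.mul_le_mul_left p (show D ≤ 2 * ((D + 1) / 2) by omega)
        rw [mul_left_comm] at this
        omega
    rw [v0, m1, zero_add] at k1
    cases hF : Nat.ble lo1 (hi / p * p + hi / p * (hi / p - 1))
    · rw [← Bool.not_eq_true, Nat.ble_eq] at hF
      rw [if_neg fun c => by have := c.2; omega] at k1
      rw [Nat.le_zero.1 k1]; exact le_rfl
    · have : padicValNat p N ≤ 1 := k1.trans (by split_ifs <;> simp)
      simpa using Nat.pow_le_pow_right hp.pos this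

theorem chunkU {L : List ℕ} {lo hi T D B : ℕ} (hL : ∀ p, p.Prime → 2 * p ≤ hi → p ∈ L)
    (ok : OKU L lo hi T D B) {n t N d : ℕ} (h1 : lo ≤ n) (h2 : n ≤ hi) (hc : Com n t N) (hT : t ≤ T)
    (h : FU n t N d) : N ≤ 4 ^ n := by
  obtain ⟨o1, o2, o3, o4, o5, o6, o7⟩ := ok
  have t1 := hc.t1
  obtain ⟨N1, d1, a1, a2, a3⟩ := h.alt (by omega)
  have hD : D ≤ d1 := D_le (n0 := lo + 1 - T) a3.d3 a3.db (by omega) (.inr (by unfold DB; omega))
  have b1 := a2.prod_split (by omega)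
  have b2 := prod_le_list (X := (n + 1 - t) / 2) L (fun p hp h3 => hL p hp (by omega))
    (fun p => p ^ padicValNat p N1) (tmU (lo + 1 - T) hi D B)
    (fun p hp h3 => tmU_ge a2 a3 (by omega) hD o2 (by omega) (by omega) o3 o4 hp h3) (tmU_pos _ _ _ _)
  refine le_trans ?_ (o7.trans (Nat.pow_le_pow_right (by norm_num) h1))
  calc N ≤ n ^ (t - 1) * ((n + 1 - t) ^ 2 * (L.map (tmU (lo + 1 - T) hi D B)).prod) :=
        a1.trans (Nat.mul_le_mul_left _ (b1.trans (Nat.mul_le_mul_left _ b2)))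
    _ ≤ hi ^ (T - 1) * (hi ^ 2 * (L.map (tmU (lo + 1 - T) hi D B)).prod) :=
        Nat.mul_le_mul ((Nat.pow_le_pow_left h2 _).trans (Nat.pow_le_pow_right (by omega) (by omega)))
          (Nat.mul_le_mul_right _ (Nat.pow_le_pow_left (by omega) _))
    _ = _ := by rw [← mul_assoc, ← pow_add, show T - 1 + 2 = T + 1 by omega]

end CfsgLib.Psx
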