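import Cfsg.Agent.Lib.Psx.QDef

set_option autoImplicit false

namespace CfsgLib.Psx

theorem eq_prod {N X : ℕ} (hN : 0 < N) (hX : ∀ p, p.Prime → X < p → padicValNat p N = 0) :
    N = ∏ p ∈ PR X, p ^ padicValNat p N := by
  conv_lhs => rw [← Nat.prod_factorization_pow_eq_self hN.ne']
  rw [Finsupp.prod_of_support_subset _ (s := PR X) _ _ fun _ _ => pow_zero _]
  · exact Finset.prod_congr rfl fun p hp => by rw [Nat.factorization_def N (mem_PR.1 hp).2]
  · intro p hp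
    have h1 := Nat.prime_of_mem_primeFactors (Nat.support_factorization N ▸ hp)
    refine mem_PR.2 ⟨not_lt.1 fun h => Finsupp.mem_support_iff.1 hp ?_, h1⟩
    rw [Nat.factorization_def N h1, hX p h1 h]

theorem Com.prod_split {n t N : ℕ} (h : Com n t N) (hn : 8 ≤ n) :
    N ≤ n ^ 2 * ∏ p ∈ PR (n / 2), p ^ padicValNat p N := by
  have sub : PR (n / 2) ⊆ PR n := fun p hp =>
    mem_PR.2 ⟨(mem_PR.1 hp).1.trans (Nat.div_le_self n 2), (mem_PR.1 hp).2⟩
  conv_lhs => rw [eq_prod h.pos fun p hp => h.gt hp, ← Finset.prod_sdiff sub]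
  refine Nat.mul_le_mul_right _ ?_
  have key : ∀ p ∈ PR n \ PR (n / 2), p.Prime ∧ p ≤ n ∧ n < 2 * p := fun p hp => by
    obtain ⟨h1, h2⟩ := Finset.mem_sdiff.1 hp
    rw [mem_PR] at h1 h2
    exact ⟨h1.2, h1.1, by_contra fun c => h2 ⟨by omega, h1.2⟩⟩
  rw [← Finset.prod_subset (Finset.inter_subset_left (s₂ := {n - 1 - n % 2, n})) fun p h1 h2 => ?_]
  · refine (Finset.prod_le_pow_card _ _ n fun p hp => ?_).trans ?_
    · obtain ⟨h1, h3, h2⟩ := key p (Finset.mem_inter.1 hp).1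
      calc p ^ padicValNat p N ≤ p ^ 1 := Nat.pow_le_pow_right h1.pos (h.top h1 h2)
        _ ≤ n := by simpa using h3
    · exact Nat.pow_le_pow_right (by omega)
        ((Finset.card_le_card Finset.inter_subset_right).trans Finset.card_le_two)
  · obtain ⟨h3, h4, h5⟩ := key p h1
    rw [h.mid h3 h5 (by_contra fun c => h2 (Finset.mem_inter.2 ⟨h1, ?_⟩)), pow_zero]
    have := h3.eq_two_or_odd
    simp only [Finset.mem_insert, Finset.mem_singleton]
    omega

theorem CaseU.exactX {n t N d D p μ : ℕ} (h : CaseU n t N d) (hD : D ≤ d) (hp : p.Prime)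
    (hμ1 : 1 ≤ μ) (hμ : ∀ q, 1 ≤ q → q * p ≤ n + 1 - t → Feas (n + 1 - t) p D q → μ ≤ q * p) :
    padicValNat p N ≤ padicValNat p (n / p).factorial + cdiv (t - 1 - n % p) p +
      (n - (n % p + cdiv (t - 1 - n % p) p * p)) / μ := by
  refine h.pp p μ hp hμ1 fun q q1 h1 h2 h3 => hμ q q1 h1 ⟨hD.trans h2, ?_⟩
  by_cases c1 : q < p
  · by_cases c2 : 2 * q < d
    · exact Or.inr (Or.inr (h3 c1 c2))
    · exact Or.inr (Or.inl (by omega))
  · exact Or.inl (by omega)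

theorem Feas.mono {n n' p D q q' : ℕ} (h : Feas n p D q) (hn : n' ≤ n) (hq : q ≤ q') :
    Feas n' p D q' := by
  have h1 : q * p ≤ q' * p := Nat.mul_le_mul_right p hq
  have h2 : q * (q - 1) ≤ q' * (q' - 1) := Nat.mul_le_mul hq (by omega)
  obtain ⟨a, b⟩ := h
  exact ⟨by omega, by omega⟩

theorem CaseU.boundF {n N d D p lo hi : ℕ} (h : CaseU n 1 N d) (hD : D ≤ d) (hD1 : 1 ≤ D)
    (hp : p.Prime) (hlo : lo ≤ n) (hhi : n ≤ hi) :
    padicValNat p N ≤ padicValNat p (n / p).factorial +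
      (if Feas lo p D (hi / p) then max 1 (hi / MU p D) else 0) := by
  have c0 : cdiv 0 p = 0 := by
    rw [cdiv]; exact Nat.div_eq_of_lt (by have := hp.pos; omega)
  split_ifs with hf
  · have := h.bound le_rfl hD hD1 hp le_rfl hhi
    rwa [Nat.sub_self, c0, add_zero] at this
  · have := h.exactX hD hp (μ := n + 1) (by omega) fun q _ h1 h2 =>
      absurd (h2.mono (by omega) ((Nat.le_div_iff_mul_le hp.pos).2 (by omega))) hf
    rw [Nat.sub_self, Nat.zero_sub, c0, Nat.div_eq_of_lt (b := n + 1) (by omega)] at this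
    exact this

theorem CaseI.greM {n t N k T hi b : ℕ} (h : CaseI n t N k) (hT : t ≤ T) (hhi : n ≤ hi)
    (hb : hi * hi ≤ ((n + 2 - t - 1) / k) ^ b) :
    N ≤ hi ^ (T - 2) * (hi * ((n + 2 - t - 1) / k).factorial) ^ b := by
  have h2 := h.two
  have h3 := h.half
  have h4 := h.t2
  set n2 := n + 2 - t with hn2
  set m := (n2 - 1) / k with hm
  have e1 : m * k ≤ n2 - 1 := Nat.div_mul_le_self _ _
  have e2 : m * (k - 1) ≤ n2 := (Nat.mul_le_mul_left m (Nat.sub_le k 1)).trans (by omega)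
  have e3 : n2 * (n2 - 1) < hi * hi :=
    lt_of_lt_of_le (Nat.mul_lt_mul_of_pos_left (by omega) (by omega))
      (Nat.mul_le_mul (show n2 ≤ hi by omega) (show n2 ≤ hi by omega))
  have e4 : n2 * (n2 - 1) * (k - 1) ^ b < n2 ^ b :=
    calc n2 * (n2 - 1) * (k - 1) ^ b < m ^ b * (k - 1) ^ b :=
          Nat.mul_lt_mul_of_pos_right (e3.trans_le hb) (Nat.pow_pos (by omega))
      _ = (m * (k - 1)) ^ b := (mul_pow _ _ _).symm
      _ ≤ n2 ^ b := Nat.pow_le_pow_left e2 b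
  refine (h.gre b e4).trans (Nat.mul_le_mul ?_ (Nat.pow_le_pow_left (Nat.mul_le_mul_right _ (by omega)) b))
  exact (Nat.pow_le_pow_left hhi _).trans (Nat.pow_le_pow_right (by omega) (by omega))

theorem FI.clo_le {n t N k T hi K : ℕ} (hc : Com n t N) (h : FI n t N k) (hT : t ≤ T)
    (hhi : n ≤ hi) (hK : k ≤ K) :
    N ≤ hi ^ (T - 2 + Nat.log 2 hi + 1) * ∏ p ∈ PR (K - 1), p ^ padicValNat p N := by
  obtain ⟨M, hM, hp, hN⟩ := h.clo
  have h2 := h.ci.two
  have h3 := h.ci.half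
  have h4 := h.ci.t2
  have M0 : 0 < M := Nat.pos_of_dvd_of_pos hM hc.pos
  refine hN.trans (Nat.mul_le_mul ?_ ?_)
  · refine (Nat.pow_le_pow_left hhi _).trans (Nat.pow_le_pow_right (by omega) ?_)
    have := Nat.log_mono_right (b := 2) (show n + 2 - t ≤ hi by omega)
    omega
  · conv_lhs => rw [eq_prod (X := K - 1) M0 fun p h1 h5 =>
      padicValNat.eq_zero_of_not_dvd fun h6 => by have := hp p h1 h6; omega]
    refine Finset.prod_le_prod' fun p h1 => ?_
    have h5 := (mem_PR.1 h1).2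
    have := Fact.mk h5
    exact Nat.pow_le_pow_right h5.pos
      ((padicValNat_dvd_iff_le hc.pos.ne').1 (pow_padicValNat_dvd.trans hM))

theorem FU.base_le {n t N d T hi D b : ℕ} (hc : Com n t N) (h : FU n t N d) (hT : t ≤ T)
    (hhi : n ≤ hi) (hD : D ≤ d) (hb : hi * hi * (hi - D) ^ b < hi ^ b) (htn : t ≤ n) :
    N ≤ hi ^ (T - 1 + b) := by
  have h1 := hc.t1
  set n1 := n + 1 - t with hn1
  have e0 : n1 ≤ hi := by omega
  have e1 : (n1 - d) * hi ≤ (hi - D) * n1 := by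
    have a1 : (n1 - d) * hi ≤ (n1 - D) * hi := Nat.mul_le_mul_right _ (by omega)
    refine a1.trans ?_
    rw [Nat.sub_mul n1 D hi, Nat.sub_mul hi D n1, mul_comm n1 hi]
    exact Nat.sub_le_sub_left (Nat.mul_le_mul_left D e0) _
  have e2 : n1 * (n1 - 1) * (n1 - d) ^ b * hi ^ b < n1 ^ b * hi ^ b :=
    calc n1 * (n1 - 1) * (n1 - d) ^ b * hi ^ b = n1 * (n1 - 1) * ((n1 - d) * hi) ^ b := by
          rw [mul_pow]; ring
      _ ≤ hi * hi * ((hi - D) * n1) ^ b :=
          Nat.mul_le_mul (Nat.mul_le_mul e0 (by omega)) (Nat.pow_le_pow_left e1 b)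
      _ = hi * hi * (hi - D) ^ b * n1 ^ b := by rw [mul_pow]; ring
      _ < hi ^ b * n1 ^ b := Nat.mul_lt_mul_of_pos_right hb (Nat.pow_pos (by omega))
      _ = n1 ^ b * hi ^ b := mul_comm _ _
  refine (h.base b (Nat.lt_of_mul_lt_mul_right e2)).trans ?_
  exact (Nat.pow_le_pow_left hhi _).trans (Nat.pow_le_pow_right (by omega) (by omega))

theorem Com.t_cert {n t N p q T : ℕ} (h : Com n t N) (hp : p.Prime) (hT : n ≤ q * p + T)
    (hq : (q = 1 ∧ p + 3 ≤ n) ∨ (1 ≤ q ∧ q < p ∧ q * p + q + 1 ≤ n ∧ q * p + 5 ≤ n)) : t ≤ T := by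
  rcases hq with ⟨rfl, h3⟩ | ⟨h1, h2, h3, h4⟩
  · have := h.jor p hp h3
    omega
  · have := h.mil p q (n - q * p) hp (by omega) h1 h2 (by omega) (by omega)
    omega

end CfsgLib.Psx
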